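import Cfsg.Agent.H3.Orb

set_option autoImplicit false
set_option linter.unusedSectionVars false

namespace Cfsg.Agent.H3

open Equiv Equiv.Perm Subgroup MulAction

variable {α : Type*} [DecidableEq α] [Fintype α]

theorem c3_share_edge {a b c d e f : α} (hab : a ≠ b) (hac : a ≠ c) (hbc : b ≠ c) (hde : d ≠ e)
    (hdf : d ≠ f) (hef : e ≠ f) (h : (c3 a b c * c3 d e f) ^ 2 = 1) (h1 : c3 a b c * c3 d e f ≠ 1) :
    ∃ p, c3 a b c p = c3 d e f p ∧ c3 a b c p ≠ p := by
  have h2 : c3 a b c * c3 d e f = c3 d f e * c3 a c b := by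
    rw [← c3_inv d e f, ← c3_inv a b c, ← mul_inv_rev]
    exact eq_inv_of_mul_eq_one_left (by rw [← pow_two, h])
  have k : ∀ x, c3 a b c (c3 d e f x) = c3 d f e (c3 a c b x) := fun x =>
    congrArg (fun u : Perm α => u x) h2
  by_contra h3
  push Not at h3
  apply h1
  have a1 := h3 a
  have a2 := h3 b
  have a3 := h3 c
  have k1 := k a
  have k2 := k b
  have k3 := k c
  have k4 := k d
  have k5 := k e
  have k6 := k f
  clear h h1 h2 k h3
  ext x
  simp only [c3, Perm.mul_apply, swap_apply_def, Perm.one_apply] at *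
  grind (splits := 40)

theorem eq_c3_of_apply {τ : Perm α} (h : IsThreeCycle τ) {p q : α} (hp : τ p = q) (hpq : q ≠ p) :
    τ q ≠ p ∧ τ q ≠ q ∧ τ = c3 (τ q) p q := by
  obtain ⟨a, b, c, hab, hac, hbc, rfl⟩ := exists_c3_of_isThreeCycle h
  have : (p = a ∧ q = b) ∨ (p = b ∧ q = c) ∨ (p = c ∧ q = a) := by
    simp only [c3, Perm.mul_apply, swap_apply_def] at hp
    grind
  rcases this with ⟨rfl, rfl⟩ | ⟨rfl, rfl⟩ | ⟨rfl, rfl⟩
  · rw [c3_apply_mid]
    exact ⟨hac.symm, hbc.symm, by rw [c3_rot hab hac hbc, c3_rot hbc hab.symm hac.symm]⟩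
  · rw [c3_apply_right hac hbc]
    exact ⟨hab, hac, rfl⟩
  · rw [c3_apply_left hab hbc]
    exact ⟨hbc, hab.symm, c3_rot hab hac hbc⟩

theorem share_edge {τ ρ : Perm α} (hτ : IsThreeCycle τ) (hρ : IsThreeCycle ρ)
    (h : (τ * ρ) ^ 2 = 1) (h1 : τ * ρ ≠ 1) : ∃ p, τ p = ρ p ∧ τ p ≠ p := by
  obtain ⟨a, b, c, hab, hac, hbc, rfl⟩ := exists_c3_of_isThreeCycle hτ
  obtain ⟨d, e, f, hde, hdf, hef, rfl⟩ := exists_c3_of_isThreeCycle hρ
  exact c3_share_edge hab hac hbc hde hdf hef h h1

theorem third_edge {τ : Perm α} (hτ : IsThreeCycle τ) {x y p q : α} (hxp : x ≠ p) (hxq : x ≠ q)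
    (hyp : y ≠ p) (hyq : y ≠ q) (hpq : p ≠ q) (hxy : x ≠ y)
    (h1 : ∃ r, τ r = c3 x p q r ∧ τ r ≠ r) (h2 : ∃ r, τ r = c3 y p q r ∧ τ r ≠ r) : τ p = q := by
  obtain ⟨r, h1, h1'⟩ := h1
  obtain ⟨s, h2, h2'⟩ := h2
  obtain ⟨a, b, c, hab, hac, hbc, rfl⟩ := exists_c3_of_isThreeCycle hτ
  simp only [c3, Perm.mul_apply, swap_apply_def] at *
  grind (splits := 40)

theorem fact_ineq (j m : ℕ) (hj : 1 ≤ j) (h : 1 ≤ m ∨ 2 ≤ j) :
    2 * (m.factorial * 3 ^ (j + 1) * (j + 1).factorial) < (m + 3 * j).factorial * 3 := by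
  have key : ∀ j, 2 ≤ j → 2 * 3 ^ j * (j + 1).factorial < (3 * j).factorial := by
    intro j hj
    induction j, hj using Nat.le_induction with
    | base => decide
    | succ n hn ih =>
      rw [show 3 * (n + 1) = 3 * n + 1 + 1 + 1 by ring, Nat.factorial_succ (3 * n + 1 + 1),
        Nat.factorial_succ (3 * n + 1), Nat.factorial_succ (3 * n), Nat.factorial_succ (n + 1),
        pow_succ]
      have h1 : 3 * (n + 2) ≤ (3 * n + 1 + 1 + 1) * ((3 * n + 1 + 1) * (3 * n + 1)) :=
        Nat.mul_le_mul (by omega) (le_trans (by omega) (Nat.le_mul_of_pos_right _ (by omega)))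
      have h2 := Nat.mul_lt_mul_of_le_of_lt h1 ih (by positivity)
      calc _ = 3 * (n + 2) * (2 * 3 ^ n * (n + 1).factorial) := by ring
        _ < _ := h2
        _ = _ := by ring
  have hm := Nat.factorial_pos m
  by_cases h2 : 2 ≤ j
  · have h3 := Nat.le_of_dvd (Nat.factorial_pos _)
      (Nat.factorial_mul_factorial_dvd_factorial_add m (3 * j))
    have h4 := Nat.mul_lt_mul_of_pos_left (key j h2) hm
    rw [pow_succ]
    nlinarith
  · obtain rfl : j = 1 := by omega
    have h1 : 1 ≤ m := by omega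
    rw [show m + 3 * 1 = m + 1 + 1 + 1 by ring, Nat.factorial_succ (m + 1 + 1),
      Nat.factorial_succ (m + 1), Nat.factorial_succ m]
    have h3 : 4 * (3 * (2 * m.factorial)) ≤
        (m + 1 + 1 + 1) * ((m + 1 + 1) * ((m + 1) * m.factorial)) :=
      Nat.mul_le_mul (by omega) (Nat.mul_le_mul (by omega) (Nat.mul_le_mul (by omega) le_rfl))
    have : (1 + 1).factorial = 2 := rfl
    rw [this]
    omega

theorem card_centralizer_alt (x : alternatingGroup α) :
    Nat.card (centralizer ({x} : Set (alternatingGroup α))) =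
      Nat.card (centralizer ({(x : Perm α)} : Set (Perm α)) ⊓ alternatingGroup α : Subgroup _) := by
  rw [← card_map_of_injective (subtype_injective (alternatingGroup α))]
  congr 2
  ext g
  simp only [mem_map, mem_centralizer_singleton_iff, mem_inf]
  constructor
  · rintro ⟨y, hy, rfl⟩
    exact ⟨congrArg Subtype.val hy, y.2⟩
  · rintro ⟨h1, h2⟩
    exact ⟨⟨g, h2⟩, Subtype.ext h1, rfl⟩

theorem card_centralizer_aut {G : Type*} [Group G] (φ : MulAut G) (x : G) :
    Nat.card (centralizer ({φ x} : Set G)) = Nat.card (centralizer ({x} : Set G)) := by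
  rw [← card_map_of_injective (f := φ.toMonoidHom) φ.injective (K := centralizer {x})]
  congr 2
  ext g
  simp only [mem_map, mem_centralizer_singleton_iff, MulEquiv.coe_toMonoidHom]
  constructor
  · intro h
    exact ⟨φ.symm g, φ.injective (by simpa using h), by simp⟩
  · rintro ⟨y, hy, rfl⟩
    rw [← map_mul, hy, map_mul]

theorem isThreeCycle_aut (h6 : Fintype.card α ≠ 6) (φ : MulAut (alternatingGroup α))
    (x : alternatingGroup α) (hx : IsThreeCycle (x : Perm α)) :
    IsThreeCycle ((φ x : alternatingGroup α) : Perm α) := by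
  have : Fact (Nat.Prime 3) := ⟨Nat.prime_three⟩
  set y : Perm α := ((φ x : alternatingGroup α) : Perm α) with hy
  have ho : orderOf y = 3 := by
    rw [hy, Subgroup.orderOf_coe, MulEquiv.orderOf_eq, ← Subgroup.orderOf_coe, hx.orderOf]
  obtain ⟨j, hj⟩ := cycleType_prime_order (ho ▸ Nat.prime_three)
  rw [ho] at hj
  rcases Nat.eq_zero_or_pos j with rfl | hj0
  · exact hj
  exfalso
  have h1 := sum_cycleType_le y
  have c1 := nat_card_centralizer y
  have c2 := nat_card_centralizer (x : Perm α)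
  rw [hj, Multiset.toFinset_replicate, if_neg (by omega)] at c1
  rw [hx.cycleType] at c2
  rw [hj] at h1
  simp only [Multiset.sum_replicate, smul_eq_mul, Multiset.prod_replicate, Finset.prod_singleton,
    Multiset.count_replicate_self, Multiset.sum_singleton, Multiset.prod_singleton,
    Multiset.toFinset_singleton, Multiset.count_singleton_self, Nat.factorial_one, mul_one]
    at c1 c2 h1
  have e1 := card_centralizer_aut φ x
  rw [card_centralizer_alt, card_centralizer_alt] at e1
  have e2 := card_le_of_le (inf_le_left :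
    centralizer ({y} : Set (Perm α)) ⊓ alternatingGroup α ≤ _)
  have e3 := card_eq_relIndex_mul (centralizer ({(x : Perm α)} : Set (Perm α))) (alternatingGroup α)
  have : Nontrivial α := Fintype.one_lt_card_iff_nontrivial.1 (by omega)
  have e4 : (alternatingGroup α).relIndex (centralizer ({(x : Perm α)} : Set (Perm α))) ≤ 2 := by
    rw [← alternatingGroup.index_eq_two (α := α)]
    exact Nat.le_of_dvd (Nat.pos_of_ne_zero index_ne_zero_of_finite)
      (relIndex_dvd_index_of_normal _ _)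
  have e5 := Nat.mul_le_mul_right
    (Nat.card (centralizer ({(x : Perm α)} : Set (Perm α)) ⊓ alternatingGroup α : Subgroup _)) e4
  have e6 := fact_ineq j (Fintype.card α - (j + 1) * 3) hj0 (by omega)
  rw [show Fintype.card α - (j + 1) * 3 + 3 * j = Fintype.card α - 3 by omega] at e6
  rw [← hy] at e1
  omega

theorem conjNormal_alt_injective (h4 : 4 ≤ Fintype.card α) :
    Function.Injective (MulAut.conjNormal : Perm α →* MulAut (alternatingGroup α)) := by
  rw [injective_iff_map_eq_one]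
  intro σ hσ
  ext a
  by_contra h
  rw [Perm.one_apply] at h
  obtain ⟨c, hc⟩ := exists_not_mem_of_card_lt ({a, σ a} : Finset α) (by
    have := Finset.card_le_two (a := a) (b := σ a); omega)
  obtain ⟨d, hd⟩ := exists_not_mem_of_card_lt ({a, σ a, c} : Finset α) (by
    have := Finset.card_le_three (a := a) (b := σ a) (c := c); omega)
  simp only [Finset.mem_insert, Finset.mem_singleton, not_or] at hc hd
  have h1 := congrArg (fun φ : MulAut (alternatingGroup α) =>
    ((φ ⟨c3 a c d, mem_alternatingGroup.2 (sign_c3 (Ne.symm hc.1) (Ne.symm hd.1))⟩ :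
      alternatingGroup α) : Perm α) (σ a)) hσ
  simp only [MulAut.conjNormal_apply, MulAut.one_apply, c3_conj] at h1
  rw [c3_apply_left (fun e => hc.1 (σ.injective e).symm) (fun e => hd.2.2 (σ.injective e).symm),
    c3_apply_of_ne h (Ne.symm hc.2) (Ne.symm hd.2.1)] at h1
  exact hc.1 (σ.injective h1)

theorem conjNormal_alt_surjective (h4 : 4 ≤ Fintype.card α) (h6 : Fintype.card α ≠ 6) :
    Function.Surjective (MulAut.conjNormal : Perm α →* MulAut (alternatingGroup α)) := by
  intro φ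
  obtain ⟨u, -⟩ := exists_not_mem_of_card_lt (∅ : Finset α) (by simp; omega)
  obtain ⟨v, hv⟩ := exists_not_mem_of_card_lt ({u} : Finset α) (by simp; omega)
  obtain ⟨i0, hi⟩ := exists_not_mem_of_card_lt ({u, v} : Finset α) (by
    have := Finset.card_le_two (a := u) (b := v); omega)
  obtain ⟨j0, hj⟩ := exists_not_mem_of_card_lt ({u, v, i0} : Finset α) (by
    have := Finset.card_le_three (a := u) (b := v) (c := i0); omega)
  simp only [Finset.mem_insert, Finset.mem_singleton, not_or] at hv hi hj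
  have huv : u ≠ v := Ne.symm hv
  let x : {i // i ≠ u ∧ i ≠ v} → alternatingGroup α := fun i =>
    ⟨c3 i u v, mem_alternatingGroup.2 (sign_c3 i.2.1 i.2.2)⟩
  let τ : {i // i ≠ u ∧ i ≠ v} → Perm α := fun i => (φ (x i) : alternatingGroup α)
  have hτ : ∀ i, IsThreeCycle (τ i) := fun i =>
    isThreeCycle_aut h6 φ _ (c3_isThreeCycle i.2.1 i.2.2 huv)
  have hinj : ∀ i j, τ i = τ j → i = j := by
    intro i j h
    have h1 : c3 (i : α) u v = c3 (j : α) u v := congrArg Subtype.val (φ.injective (Subtype.ext h))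
    have h2 := congrArg (fun g : Perm α => g v) h1
    simp only [c3_apply_right i.2.2 huv, c3_apply_right j.2.2 huv] at h2
    exact Subtype.ext h2
  have hsh : ∀ i j, i ≠ j → ∃ p, τ i p = τ j p ∧ τ i p ≠ p := by
    intro i j hij
    have hij' : (i : α) ≠ j := fun e => hij (Subtype.ext e)
    apply share_edge (hτ i) (hτ j)
    · have : (x i * x j) ^ 2 = 1 := Subtype.ext (c3_mul_c3_sq i.2.1 i.2.2 j.2.1 j.2.2 huv hij')
      have h2 := congrArg (fun g => ((φ g : alternatingGroup α) : Perm α)) this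
      simpa using h2
    · intro h
      have h1 : φ (x i * x j) = 1 := by rw [map_mul]; exact Subtype.ext h
      have h2 : c3 (i : α) u v * c3 (j : α) u v = 1 :=
        congrArg Subtype.val ((MulEquiv.map_eq_one_iff φ).1 h1)
      rw [c3_mul_c3 i.2.1 i.2.2 j.2.1 j.2.2 huv hij'] at h2
      have h3 := congrArg (fun g : Perm α => g u) h2
      simp only [Perm.mul_apply, swap_apply_of_ne_of_ne j.2.1.symm huv, swap_apply_right,
        Perm.one_apply] at h3
      exact i.2.1 h3
  let a : {i // i ≠ u ∧ i ≠ v} := ⟨i0, hi⟩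
  let b : {i // i ≠ u ∧ i ≠ v} := ⟨j0, hj.1, hj.2.1⟩
  have hab : a ≠ b := fun e => hj.2.2 (congrArg Subtype.val e).symm
  obtain ⟨p, hp1, hp2⟩ := hsh a b hab
  set q := τ a p with hq
  have hall : ∀ i, τ i p = q := by
    intro i
    by_cases c1 : i = a
    · rw [c1]
    by_cases c2 : i = b
    · rw [c2, hp1]
    obtain ⟨a1, a2, a3⟩ := eq_c3_of_apply (hτ a) hq.symm hp2
    obtain ⟨b1, b2, b3⟩ := eq_c3_of_apply (hτ b) hp1.symm hp2
    refine third_edge (hτ i) a1 a2 b1 b2 hp2.symm (fun e => hab (hinj _ _ ?_)) ?_ ?_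
    · rw [a3, b3, e]
    · rw [← a3]; exact hsh i a c1
    · rw [← b3]; exact hsh i b c2
  have hform := fun i => eq_c3_of_apply (hτ i) (hall i) hp2
  let s : α → α := fun i => if h : i ≠ u ∧ i ≠ v then τ ⟨i, h⟩ q else if i = u then p else q
  have su : s u = p := by simp [s]
  have sv : s v = q := by simp [s, hv]
  have si : ∀ i (h : i ≠ u ∧ i ≠ v), s i = τ ⟨i, h⟩ q := fun i h => by simp only [s, dif_pos h]
  have hs : Function.Injective s := by
    intro i j e
    by_cases ci : i ≠ u ∧ i ≠ v <;> by_cases cj : j ≠ u ∧ j ≠ v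
    · rw [si i ci, si j cj] at e
      refine congrArg Subtype.val (hinj ⟨i, ci⟩ ⟨j, cj⟩ ?_)
      rw [(hform ⟨i, ci⟩).2.2, (hform ⟨j, cj⟩).2.2, e]
    · rw [si i ci] at e
      have : j = u ∨ j = v := by tauto
      rcases this with h | h <;> rw [h] at e
      · exact absurd (e.trans su) (hform ⟨i, ci⟩).1
      · exact absurd (e.trans sv) (hform ⟨i, ci⟩).2.1
    · rw [si j cj] at e
      have : i = u ∨ i = v := by tauto
      rcases this with h | h <;> rw [h] at e
      · exact absurd (e.symm.trans su) (hform ⟨j, cj⟩).1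
      · exact absurd (e.symm.trans sv) (hform ⟨j, cj⟩).2.1
    · have h1 : i = u ∨ i = v := by tauto
      have h2 : j = u ∨ j = v := by tauto
      rcases h1 with rfl | rfl <;> rcases h2 with h2 | h2 <;> rw [h2] at e ⊢
      · rw [su, sv] at e; exact absurd e hp2.symm
      · rw [su, sv] at e; exact absurd e hp2
  let σ : Perm α := Equiv.ofBijective s (Finite.injective_iff_bijective.1 hs)
  refine ⟨σ, ?_⟩
  have hF : Full (((MulAut.conjNormal σ).toMonoidHom.eqLocus φ.toMonoidHom).map
      (alternatingGroup α).subtype) Set.univ := by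
    refine full_of_star huv fun i _ h1 h2 => ⟨x ⟨i, h1, h2⟩, Subtype.ext ?_, rfl⟩
    change σ * c3 i u v * σ⁻¹ = τ ⟨i, h1, h2⟩
    rw [c3_conj, (hform ⟨i, h1, h2⟩).2.2]
    change c3 (s i) (s u) (s v) = _
    rw [su, sv, si i ⟨h1, h2⟩]
  ext g z
  obtain ⟨y, hy, e⟩ := hF.alternatingGroup_le g.2
  rw [← Subtype.ext e]
  exact congrArg (fun g : alternatingGroup α => (g : Perm α) z) hy

end Cfsg.Agent.H3
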