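import Cfsg.Agent.H3.LineCard
import Cfsg.Agent.H8.Order

/-! Explicit elements and order bounds for Chevalley groups over small fields. -/

set_option autoImplicit false

namespace Cfsg.Agent.H3

open Matrix Cfsg.Lie

variable {F : Type*} [Field F] {D : ChevalleyDatum}

/-- the matrices of a subgroup of the general linear group -/
def glMat {ι : Type*} [Fintype ι] [DecidableEq ι] (K : Subgroup (GL ι F)) : K →* Matrix ι ι F :=
  (Units.coeHom _).comp K.subtype

theorem glMat_inj {ι : Type*} [Fintype ι] [DecidableEq ι] (K : Subgroup (GL ι F)) :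
    Function.Injective (glMat K) := Units.val_injective.comp Subtype.val_injective

theorem chev_gen [H8.RootFacts D] [H7.MatFacts D] {R : Type*} [Field R] (φ : R →+* F)
    {M : Matrix D.Idx D.Idx R} {r : ℕ} {t : R} (h : M = D.x R r t) :
    ∃ x : D.group F, glMat (D.group F) x = M.map φ :=
  ⟨H7.xg D F r (φ t), by rw [h, H7.x_map]; rfl⟩

theorem card_chev_le [Fintype F] {q n : ℕ} (hF : Fintype.card F = q) {ds : List ℕ}
    (h : (Nat.card (D.group F) : ℤ) * Nat.card (H7.zker D F) =
      Nat.card F ^ (D.nroots / 2) * (ds.map fun d : ℕ => (Nat.card F : ℤ) ^ d - 1).prod)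
    (hn : (q : ℤ) ^ (D.nroots / 2) * (ds.map fun d : ℕ => (q : ℤ) ^ d - 1).prod = n) (h0 : 0 < n) :
    Nat.card (D.group F) ≤ n := by
  rw [Nat.card_eq_fintype_card (α := F), hF, hn] at h
  have h1 : Nat.card (D.group F) * Nat.card (H7.zker D F) = n := by exact_mod_cast h
  exact Nat.le_of_dvd h0 ⟨_, h1.symm⟩

instance : Fact (∀ r : ZMod 2, r ^ 2 ≠ 1 + 1 * r) := ⟨by decide⟩

end Cfsg.Agent.H3
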