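import Cfsg.Agent.H3.Core

/-! Lower bounds for multipliers, with large coefficients. -/

set_option autoImplicit false

namespace Cfsg.Agent.H3

open L0

universe u

variable {G : Type u} [Group G] [Finite G] {x : ℕ → G} {k : ℕ} {R : List (List ℕ)}

theorem lower_one' (hP : IsPres x k R) {m : ℕ} {val : ℕ → ZMod m} (h : Rep k R (ZMod m) 1 val)
    (L : List (ℤ × ℕ)) (hz : zeroExp k R L = true)
    (h1 : (L.map fun p => (p.1 : ZMod m) * val p.2).sum = 1) :
    LowerMult G (Multiplicative (ZMod m)) :=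
  lower_one hP h L hz (by simpa only [zsmul_eq_mul] using h1)

theorem lower_two' (hP : IsPres x k R) {m n : ℕ} {val : ℕ → ZMod m} {val' : ℕ → ZMod n}
    (h : Rep k R (ZMod m) 1 val) (h' : Rep k R (ZMod n) 1 val') (L L' : List (ℤ × ℕ))
    (hz : [L, L'].all (zeroExp k R) = true)
    (h1 : (L.map fun p => ((p.1 : ZMod m) * val p.2, (p.1 : ZMod n) * val' p.2)).sum = (1, 0))
    (h2 : (L'.map fun p => ((p.1 : ZMod m) * val p.2, (p.1 : ZMod n) * val' p.2)).sum = (0, 1)) :
    LowerMult G (Multiplicative (ZMod m × ZMod n)) :=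
  lower_two hP h h' L L' hz (by simpa only [Prod.smul_mk, zsmul_eq_mul] using h1)
    (by simpa only [Prod.smul_mk, zsmul_eq_mul] using h2)

theorem lower_three' (hP : IsPres x k R) {l m n : ℕ} {val : ℕ → ZMod l} {val' : ℕ → ZMod m}
    {val'' : ℕ → ZMod n} (h : Rep k R (ZMod l) 1 val) (h' : Rep k R (ZMod m) 1 val')
    (h'' : Rep k R (ZMod n) 1 val'') (L L' L'' : List (ℤ × ℕ))
    (hz : [L, L', L''].all (zeroExp k R) = true)
    (h1 : (L.map fun p => ((p.1 : ZMod l) * val p.2, (p.1 : ZMod m) * val' p.2,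
      (p.1 : ZMod n) * val'' p.2)).sum = (1, 0, 0))
    (h2 : (L'.map fun p => ((p.1 : ZMod l) * val p.2, (p.1 : ZMod m) * val' p.2,
      (p.1 : ZMod n) * val'' p.2)).sum = (0, 1, 0))
    (h3 : (L''.map fun p => ((p.1 : ZMod l) * val p.2, (p.1 : ZMod m) * val' p.2,
      (p.1 : ZMod n) * val'' p.2)).sum = (0, 0, 1)) :
    LowerMult G (Multiplicative (ZMod l × ZMod m × ZMod n)) :=
  lower_three hP h h' h'' L L' L'' hz (by simpa only [Prod.smul_mk, zsmul_eq_mul] using h1)
    (by simpa only [Prod.smul_mk, zsmul_eq_mul] using h2)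
    (by simpa only [Prod.smul_mk, zsmul_eq_mul] using h3)

end Cfsg.Agent.H3
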