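import Cfsg.Agent.H3.Fld
import Cfsg.Agent.H4.GLOrd

/-! Orders of small special linear groups. -/

set_option autoImplicit false

namespace Cfsg.Agent.H3

theorem card_SL_of {F : Type*} [Field F] [Fintype F] {n q m : ℕ} [NeZero n] (hF : Fintype.card F = q)
    (h : ∏ i : Fin n, (q ^ n - q ^ (i : ℕ)) = m * (q - 1)) :
    Nat.card (Matrix.SpecialLinearGroup (Fin n) F) = m := by
  have h1 := H4.card_SL_mul (F := F) (ι := Fin n)
  rw [Matrix.card_GL_field, hF, h] at h1
  have h2 : 1 < q := hF ▸ Fintype.one_lt_card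
  exact Nat.eq_of_mul_eq_mul_right (by omega) h1

theorem schur_quot {G : Type*} [Group G] [Finite G] {N k n z : ℕ} {T : ℕ → ℕ → ℕ} {B : List ℕ}
    {A : Type} [CommGroup A] (hm : ∃ K : Subgroup (G ⧸ Subgroup.center G), Model K N k T B)
    (h : ∀ K : Subgroup (G ⧸ Subgroup.center G), Model K N k T B →
      Finite K ∧ Nat.card K = n ∧ HasSchurMultiplier K A) (hz : 0 < z) (hG : Nat.card G ≤ n * z)
    (hZ : z ≤ Nat.card (Subgroup.center G)) : HasSchurMultiplier (G ⧸ Subgroup.center G) A := by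
  obtain ⟨K, hK⟩ := hm
  exact schur_of_sub (h K hK) (card_quot_le _ hz hG hZ)

end Cfsg.Agent.H3
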