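import Cfsg.Agent.H3.Fld2
import Cfsg.Agent.H5.Uni

/-! Centres, symplectic and unitary generators. -/

set_option autoImplicit false

namespace Cfsg.Agent.H3

open Matrix

variable {R F : Type*} [CommRing R] [Field F] {ι : Type*} [Fintype ι] [DecidableEq ι]

theorem map_smul_one (φ : R →+* F) (a : R) :
    (a • (1 : Matrix ι ι R)).map φ = φ a • (1 : Matrix ι ι F) := by
  ext i j
  by_cases h : i = j <;> simp [h, Matrix.one_apply]

theorem le_card_center [Nonempty ι] {G : Type*} [Group G] [Finite G] {ρ : G →* Matrix ι ι F}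
    (hρ : Function.Injective ρ) {φ : R →+* F} (hφ : Function.Injective φ) (a : R) {z : ℕ}
    (hx : ∃ x, ρ x = (a • (1 : Matrix ι ι R)).map φ) (hz : 0 < z) (h1 : a ^ z = 1)
    (h2 : ∀ m < z, 0 < m → a ^ m ≠ 1) : z ≤ Nat.card (Subgroup.center G) := by
  obtain ⟨x, hx⟩ := hx
  rw [map_smul_one] at hx
  have key : ∀ m, x ^ m = 1 ↔ a ^ m = 1 := fun m => by
    rw [← hρ.eq_iff, map_pow, hx, map_one, smul_pow, one_pow, ← map_pow, ← hφ.eq_iff, map_one]
    constructor
    · intro h
      obtain ⟨i⟩ := ‹Nonempty ι›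
      simpa using congrFun (congrFun h i) i
    · intro h; rw [h, one_smul]
  exact le_card_of_orderOf (Vec.central_of_scalar hρ hx)
    ((orderOf_eq_iff hz).mpr ⟨(key z).mpr h1, fun m hm h0 h => h2 m hm h0 ((key m).mp h)⟩)

theorem det_map_eq_one (φ : R →+* F) {p m : ℕ} (hp : p.Prime) (h0 : (p : F) = 0) {M : Matrix ι ι R}
    (h : M ^ p ^ m = 1) : (M.map φ).det = 1 := det_eq_one_of_pow hp h0 (map_pow_eq_one φ h)

theorem sp_gen {l : Type*} [Fintype l] [DecidableEq l] (φ : R →+* F)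
    {M : Matrix (l ⊕ l) (l ⊕ l) R} (h : M * J l R * Mᵀ = J l R) :
    ∃ x : symplecticGroup l F, (symplecticGroup l F).subtype x = M.map φ :=
  ⟨⟨M.map φ, SymplecticGroup.map_mem (SymplecticGroup.mem_iff.mpr h) φ⟩, rfl⟩

/-- the matrices of the special unitary group -/
def suMat (n : ℕ) (F : Type*) [Field F] (q : ℕ) : SU n F q →* Matrix (Fin n) (Fin n) F :=
  Matrix.SpecialLinearGroup.coeMonoidHom.comp (SU n F q).subtype

theorem suMat_inj (n q : ℕ) : Function.Injective (suMat n F q) :=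
  Matrix.SpecialLinearGroup.coeMonoidHom_injective.comp Subtype.val_injective

theorem su_gen [Fintype F] {n q : ℕ} (hF : Fintype.card F = q ^ 2) (φ : R →+* F)
    {M : Matrix (Fin n) (Fin n) R} (h : Mᵀ * M.map (· ^ q) = 1) (hd : (M.map φ).det = 1) :
    ∃ x : SU n F q, suMat n F q x = M.map φ := by
  refine ⟨(H5.uf_frob hF).mkSU (M.map φ) ?_ hd, rfl⟩
  have := congrArg φ.mapMatrix h
  rw [map_mul, map_one] at this
  rw [← this]
  congr 1
  ext i j
  simp [H5.frob]

theorem su_center [Fintype F] {n q : ℕ} (hF : Fintype.card F = q ^ 2) (z : SU n F q)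
    (hz : z ∈ Subgroup.center (SU n F q)) : ∃ a : F, suMat n F q z = a • 1 :=
  (H5.uf_frob hF).mem_center_SU.mp hz

theorem card_SU_of [Fintype F] {n q m : ℕ} (hF : Fintype.card F = q ^ 2)
    (h : ∏ i ∈ Finset.range n, (q ^ (i + 1) * H5.uq q (i + 2)) = m) :
    Nat.card (SU (n + 1) F q) = m := by rw [(H5.uf_frob hF).card_SU, h]

theorem det_map_one (φ : R →+* F) {M : Matrix ι ι R} (h : M.det = 1) : (M.map φ).det = 1 := by
  rw [← RingHom.mapMatrix_apply, ← RingHom.map_det, h, map_one]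

theorem det_smul_one_map (φ : R →+* F) {a : R} (h : a ^ Fintype.card ι = 1) :
    ((a • (1 : Matrix ι ι R)).map φ).det = 1 := det_map_one φ (by simp [h])

end Cfsg.Agent.H3
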