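import Cfsg.Agent.H3.LineCard
import Cfsg.Agent.H6.Spinor
import Cfsg.Agent.H6.OrthChar2

/-! Explicit elements and order bounds for orthogonal groups over small fields. -/

set_option autoImplicit false

namespace Cfsg.Agent.H3

open Matrix H6
open scoped commutatorElement

variable {R F : Type*} [CommRing R] [Field F] {ι : Type} [Fintype ι] [DecidableEq ι]

/-- the matrices of the isometry group -/
def oMat (Q : (ι → F) → F) : isometryGroup F Q →* Matrix ι ι F :=
  (Units.coeHom _).comp (isometryGroup F Q).subtype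

/-- the matrices of the commutator subgroup -/
def omMat (Q : (ι → F) → F) : Omega F Q →* Matrix ι ι F := (oMat Q).comp (Omega F Q).subtype

theorem oMat_inj (Q : (ι → F) → F) : Function.Injective (oMat Q) :=
  Units.val_injective.comp Subtype.val_injective

/-- the matrix of a reflection -/
def rm (Q0 : (ι → R) → R) (v : ι → R) : Matrix ι ι R := Matrix.of fun i j =>
  (if i = j then 1 else 0) - (Q0 (Pi.single j 1 + v) - Q0 (Pi.single j 1) - Q0 v) * Q0 v * v i

theorem comp_single (φ : R →+* F) (j : ι) : φ ∘ (Pi.single j 1 : ι → R) = Pi.single j 1 := by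
  funext i
  by_cases h : i = j <;> simp [h, Pi.single_apply]

theorem comp_add (φ : R →+* F) (u v : ι → R) : φ ∘ (u + v) = φ ∘ u + φ ∘ v := by
  funext i; simp

variable {Q : QuadraticForm F (ι → F)} {φ : R →+* F} {Q0 : (ι → R) → R}

theorem refl_mat (hQ : ∀ v, Q (φ ∘ v) = φ (Q0 v)) {v : ι → R} (hv : Q0 v * Q0 v = 1) :
    ∃ a : isometryGroup F Q, a⁻¹ = a ∧ oMat Q a = (rm Q0 v).map φ := by
  refine ⟨(ogEquiv Q).symm (refl Q (φ ∘ v)), by rw [← map_inv, refl_inv], ?_⟩
  ext i j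
  have h1 := ogEquiv_apply Q ((ogEquiv Q).symm (refl Q (φ ∘ v))) (Pi.single j 1)
  rw [MulEquiv.apply_symm_apply, refl_apply] at h1
  have h2 := congrFun h1 i
  rw [Matrix.mulVec_single_one] at h2
  refine Eq.trans h2.symm ?_
  have h3 : (φ (Q0 v))⁻¹ = φ (Q0 v) := inv_eq_of_mul_eq_one_right (by rw [← map_mul, hv, map_one])
  rw [pb_def, ← comp_single φ, ← comp_add, hQ, hQ, hQ, div_eq_mul_inv, h3]
  by_cases h : i = j <;> simp [rm, h, Pi.single_apply]

theorem omega_gen (hQ : ∀ v, Q (φ ∘ v) = φ (Q0 v)) {v w : ι → R} {M : Matrix ι ι R}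
    (h : Q0 v * Q0 v = 1 ∧ Q0 w * Q0 w = 1 ∧ M = rm Q0 v * rm Q0 w * (rm Q0 v * rm Q0 w)) :
    ∃ x : Omega F Q, omMat Q x = M.map φ := by
  obtain ⟨a, a1, a2⟩ := refl_mat hQ h.1
  obtain ⟨b, b1, b2⟩ := refl_mat hQ h.2.1
  refine ⟨⟨⁅a, b⁆, Subgroup.commutator_mem_commutator (Subgroup.mem_top a) (Subgroup.mem_top b)⟩, ?_⟩
  change oMat Q ⁅a, b⁆ = _
  rw [commutatorElement_def, a1, b1, map_mul, map_mul, map_mul, a2, b2, h.2.2]
  simp only [Matrix.map_mul, Matrix.mul_assoc]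

theorem card_le_prod_mat {G : Type*} [Group G] [Finite G] (ρ : G →* Matrix ι ι F) (e : ℕ → ι → F)
    (n : ℕ → ℕ) (r : ℕ) (h : ∀ i < r, ∃ S : Finset (ι → F), S.card ≤ n i ∧
      ∀ g : G, (∀ j < i, ρ g *ᵥ e j = e j) → ρ g *ᵥ e i ∈ S)
    (h1 : ∀ g : G, (∀ j < r, ρ g *ᵥ e j = e j) → g = 1) :
    Nat.card G ≤ ∏ i ∈ Finset.range r, n i := by
  letI : MulAction G (ι → F) :=
    { smul := fun g v => ρ g *ᵥ v
      one_smul := fun v => by change ρ 1 *ᵥ v = v; simp
      mul_smul := fun g h v => by change ρ (g * h) *ᵥ v = ρ g *ᵥ (ρ h *ᵥ v); simp }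
  exact card_le_prod e n r h h1

theorem card_O_le [Fintype F] [Fintype R] [DecidableEq R] (hφ : Function.Bijective φ)
    (hQ : ∀ v, Q (φ ∘ v) = φ (Q0 v)) (b : ℕ → ι) (n : ℕ → ℕ) (r : ℕ) (hb : ∀ i, ∃ j < r, b j = i)
    (hn : ∀ i < r, (Finset.univ.filter fun v : ι → R => Q0 v = Q0 (Pi.single (b i) 1) ∧ v ≠ 0 ∧
      ∀ j < i, Q0 (v + Pi.single (b j) 1) = Q0 (Pi.single (b i) 1 + Pi.single (b j) 1)).card ≤ n i) :
    Nat.card (isometryGroup F Q) ≤ ∏ i ∈ Finset.range r, n i := by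
  classical
  have hg : ∀ (g : isometryGroup F Q) (v : ι → F), Q (oMat Q g *ᵥ v) = Q v := fun g v => g.2 v v
  refine card_le_prod_mat (oMat Q) (fun j => (Pi.single (b j) 1 : ι → F)) n r
    (fun i hi => ⟨Finset.image (φ ∘ ·) _,
    Finset.card_image_le.trans (hn i hi), fun g h => ?_⟩) fun g h => oMat_inj Q ?_
  · obtain ⟨v, hv⟩ := hφ.2.comp_left (oMat Q g *ᵥ (Pi.single (b i) 1 : ι → F))
    replace hv : φ ∘ v = oMat Q g *ᵥ (Pi.single (b i) 1 : ι → F) := hv
    refine Finset.mem_image.mpr ⟨v, Finset.mem_filter.mpr ⟨Finset.mem_univ _, hφ.1 ?_, ?_,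
      fun j hj => hφ.1 ?_⟩, hv⟩
    · rw [← hQ, ← hQ, comp_single, hv, hg]
    · rintro rfl
      have h1 : oMat Q g⁻¹ *ᵥ (oMat Q g *ᵥ (Pi.single (b i) 1 : ι → F)) = 0 := by
        have : φ ∘ (0 : ι → R) = 0 := by funext i; simp
        rw [← hv, this, Matrix.mulVec_zero]
      rw [Matrix.mulVec_mulVec, ← map_mul, inv_mul_cancel, map_one, Matrix.one_mulVec] at h1
      simpa using congrFun h1 (b i)
    · rw [← hQ, ← hQ, comp_add, comp_add, comp_single, comp_single, hv,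
        ← hg g (Pi.single (b i) 1 + _), Matrix.mulVec_add, h j hj]
  · rw [map_one]
    ext i j
    obtain ⟨l, hl, rfl⟩ := hb j
    have := congrFun (h l hl) i
    rw [Matrix.mulVec_single_one] at this
    exact this.trans (by simp [Pi.single_apply, Matrix.one_apply])

theorem card_Omega_two [Fintype F] (hB : (pb Q).Nondegenerate) (h5 : 5 ≤ Fintype.card ι)
    {v : ι → F} (hv : Q v ≠ 0) : Nat.card (Omega F Q) * 2 ≤ Nat.card (isometryGroup F Q) := by
  refine card_commutator_mul_le ((dick hB (bigEnough_of_card h5)).comp (ogEquiv Q).toMonoidHom) ?_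
  have : ((dick hB (bigEnough_of_card h5)).comp (ogEquiv Q).toMonoidHom).range = ⊤ := by
    rw [eq_top_iff]
    intro u _
    rcases Int.units_eq_one_or u with rfl | rfl
    · exact one_mem _
    · exact ⟨(ogEquiv Q).symm (refl Q v), by simp [dick_refl hB _ hv]⟩
  rw [this]; simp

theorem card_Omega_four [Fintype F] [DecidableEq F] (hB : (pb Q).Nondegenerate)
    (h5 : 5 ≤ Fintype.card ι) {v w : ι → F} (hv : quadraticChar F (Q v) = 1)
    (hw : quadraticChar F (Q w) = -1) :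
    Nat.card (Omega F Q) * 4 ≤ Nat.card (isometryGroup F Q) := by
  have hN : BigEnough F (ι → F) := bigEnough_of_card h5
  have hv0 : Q v ≠ 0 := fun h => by simp [h] at hv
  have hw0 : Q w ≠ 0 := fun h => by simp [h] at hw
  let f := ((dick hB hN).prod (thetaHom hB hN).toHomUnits).comp (ogEquiv Q).toMonoidHom
  refine card_commutator_mul_le f ?_
  have h1 : ((-1, 1) : ℤˣ × ℤˣ) ∈ f.range := ⟨(ogEquiv Q).symm (refl Q v), by
    refine Prod.ext (by simp [f, dick_refl hB _ hv0]) (Units.ext ?_)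
    simpa [f, thetaHom, theta_refl hB hv0] using hv⟩
  have h2 : ((-1, -1) : ℤˣ × ℤˣ) ∈ f.range := ⟨(ogEquiv Q).symm (refl Q w), by
    refine Prod.ext (by simp [f, dick_refl hB _ hw0]) (Units.ext ?_)
    simpa [f, thetaHom, theta_refl hB hw0] using hw⟩
  have : f.range = ⊤ := by
    rw [eq_top_iff]
    rintro ⟨a, b⟩ _
    rcases Int.units_eq_one_or a with rfl | rfl <;> rcases Int.units_eq_one_or b with rfl | rfl
    · exact one_mem _
    · simpa using mul_mem h1 h2
    · exact h1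
    · exact h2
  rw [this]; simp

end Cfsg.Agent.H3
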